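import Cfsg.Agent.Lib.Helper35.RuPOrd.X0.Chk0

namespace Cfsg.Agent.Lib.Helper35.RuPOrd.X0

open Cfsg.Agent.Lib.Helper35

noncomputable def reach0 : ReachData RuP4060.pt 4059 [[0], [1], [2], [3], [4], [5], [6], [7], [8]] 0 4060 where
  sl := sl0
  hsl := rfl
  ot := ot0
  big := 9
  hchk := q0u0
  hcnt := m0n0
theorem fix0 : ∀ s ∈ ([[0], [1], [2], [3], [4], [5], [6], [7]] : List (List Nat)), pwalk RuP4060.pt s 0 = 0 := by decide +kernel
noncomputable def reach1 : ReachData RuP4060.pt 4059 [[0], [1], [2], [3], [4], [5], [6], [7]] 1 1755 where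
  sl := sl1
  hsl := rfl
  ot := ot1
  big := 8
  hchk := q1u0
  hcnt := m1n0
theorem fix1 : ∀ s ∈ ([[0], [1], [2], [3], [4], [6], [7]] : List (List Nat)), pwalk RuP4060.pt s 1 = 1 := by decide +kernel
noncomputable def reach2 : ReachData RuP4060.pt 4059 [[0], [1], [2], [3], [4], [6], [7]] 1112 1024 where
  sl := sl2
  hsl := rfl
  ot := ot2
  big := 7
  hchk := q2u0
  hcnt := m2n0
theorem fix2 : ∀ s ∈ ([[0], [1], [6], [7]] : List (List Nat)), pwalk RuP4060.pt s 1112 = 1112 := by decide +kernel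
noncomputable def reach3 : ReachData RuP4060.pt 4059 [[0], [1], [6], [7]] 3386 20 where
  sl := sl3
  hsl := rfl
  ot := ot3
  big := 4
  hchk := q3u0
  hcnt := m3n0
theorem fix3 : ∀ s ∈ ([] : List (List Nat)), pwalk RuP4060.pt s 3386 = 3386 := by decide +kernel
theorem yfix0 : ∀ i, i < 4060 → pwalk RuP4060.pt yl0.W i = i := fun i hi => fix_of_leaves' [yl0] 4060 y0u3 yl0.W (by simp) i hi

end Cfsg.Agent.Lib.Helper35.RuPOrd.X0
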